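import Mathlib
import Cfsg.Agent.Spor.PC.Golay

/-! Polycyclic certificate for a Sylow 2-subgroup of `M12`. -/

set_option autoImplicit false

namespace Cfsg.Agent.Spor.PC

open Cfsg.Agent.Spor.Golay

noncomputable def m12R : ℕ → ℕ → ℕ :=
  tabS (.node (.node (.node (.leaf 0xfbff3debbe39db7d35cb3c31bafb2daaba299a79258a382179f71d69b61959751549341138f30d28b209187105083001) (.leaf 0xbafb2daaba299a79258a3821ffef7cefae78df6d74cf2c7038f30d28b2091871050830017de75c6da6585d65544d2450)) (.leaf 0xefae78ffef7ccb3c31db7d35aaba29bafb2d8e28609e69646da6587de75c49341159751528b20938f30d0c20401c6144)) (.node (.node (.leaf 0xf3dffee39efad35df6c31cf2b6cbafa68aab9649a78608a375c79f65869b55459745049330d3ce2092ca1051c60010c2) (.leaf 0x7de75c6da6585d65544d24503ce34c2ca2481c61440c2040ffef7cefae78df6d74cf2c70beeb6caeaa689e69648e2860)) (.leaf 0xcf2c70df6d74e78ebbf7cfbf8608a39649a7aaba29bafb2d59751549341175c79f65869b1441870400833ce34c2ca248))) 6 63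

noncomputable def m12C (j k : ℕ) : ℕ :=
  tabS (.node (.node (.node (.leaf 0x0) (.leaf 0x12c50c1)) (.leaf 0x81)) (.node (.node (.leaf 0x41) (.leaf 0x103440c1)) (.leaf 0xc5081))) 6 63 k j

def m12L : LT :=
  (.node (.node (.leaf [2]) (.leaf [58])) (.leaf [10]))

def m12St : List Step :=
  [⟨10, 46, 3, 2, [], [], [], []⟩,
   ⟨17, 49, 2, 1, [], [], [], []⟩,
   ⟨32, 32, 6, 0, [], [], [], []⟩]

def m12CF : List (ℕ × ℕ × List ℕ) :=
  [(1, 26, [6]), (26, 24, [3]), (24, 29, [5]), (24, 36, [7]), (34, 21, [8])]

def m12D : List (ℕ × ℕ × ℕ) :=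
  [(1, 1, 26), (1, 26, 24), (1, 24, 29), (1, 24, 36), (0, 29, 26), (0, 7, 36), (1, 34, 21), (0, 24, 26), (0, 7, 2), (0, 1, 21), (0, 20, 29), (0, 26, 8), (0, 36, 4)]

theorem m12_tab : chkTab m12R m12C 6 = true := by decide +kernel

theorem m12_phi : chkPhi m12R 6 3 m12L = true := by decide +kernel

theorem m12_steps : chkSteps m12R 6 m12St 3 = true := by decide +kernel

theorem m12_cen : chkCen m12R 6 1 = true := by decide +kernel

theorem m12_der : chkDer m12R 6 1 m12CF m12D = true := by decide +kernel

/-- Codes of the polycyclic generators and of some conjugating elements. -/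
def m12T : BT :=
  (.node (.node (.node (.node (.leaf 970499966350631336865513127433832480) (.leaf 923528503906035738725471698607613362)) (.leaf 608405391266436187982588441666881568)) (.node (.leaf 735548533734033527546468929854573569) (.leaf 934270661522701003970812650119500161))) (.node (.node (.leaf 719923664328491199848526586197411872) (.leaf 596654750537752186788767474980520034)) (.node (.leaf 601915135321570999558303616165022752) (.leaf 309575029504529448575688344820983172))))

theorem m12_in : allLt 9 (fun x => isM12 (m12T.get x)) = true := by decide +kernel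

theorem m12_rel : chkRel (tabS m12T 5 31) m12C (List.range 24) 6 = true := by decide +kernel

theorem m12_conj : chkConj (tabS m12T 5 31) (List.range 24) 6 9 m12CF = true := by
  decide +kernel

theorem m12_cert : ∃ g : ℕ → Spor.M12, Tabs ptOf 24 (tabS m12T 5 31) g 9 ∧ Cert g 6 m12R := by
  obtain ⟨g, hg⟩ := exists_tabs (H := Spor.M12) fun x hx => inH_M12 ((allLt_iff _ _).1 m12_in x hx)
  exact ⟨g, hg, cert_of_chk hg ptOf_injOn (isBase_range _) range_lt (by norm_num) (by norm_num)
    m12_rel m12_tab m12_phi m12_steps rfl m12_cen m12_der m12_conj⟩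

end Cfsg.Agent.Spor.PC
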